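import Cfsg.Agent.DegreeGraph.AbelianNormal
import Cfsg.Agent.DegreeGraph.RootField
import Mathlib.NumberTheory.GaussSum
import Mathlib.NumberTheory.MulChar.Duality
import Mathlib.RingTheory.RootsOfUnity.AlgebraicallyClosed
import Mathlib.NumberTheory.LegendreSymbol.Complex
import Mathlib.RingTheory.LittleWedderburn
import Mathlib.Algebra.Ring.Subring.Basic
import Mathlib.Algebra.Group.Hom.End
import Mathlib.GroupTheory.QuotientGroup.Defs
import Mathlib.GroupTheory.QuotientGroup.Basic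

/-!
Knörr's generalised character `δ` for an abelian group acting coprimely on a finite abelian group
of prime exponent, built from Gauss sums.
-/

namespace Cfsg.Agent.DegreeGraph

open scoped ComplexConjugate

universe u v

/-- `z` is an algebraic integer lying in `M`. -/
def InM (M : Ideal Cfsg.AlgInt) (z : ℂ) : Prop := ∃ x : Cfsg.AlgInt, x ∈ M ∧ (x : ℂ) = z

theorem InM.zero (M : Ideal Cfsg.AlgInt) : InM M 0 := ⟨0, M.zero_mem, rfl⟩

theorem InM.mul {M : Ideal Cfsg.AlgInt} {z w : ℂ} (hw : IsIntegral ℤ w) (hz : InM M z) :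
    InM M (w * z) := by
  obtain ⟨x, hx, rfl⟩ := hz
  exact ⟨(⟨w, hw⟩ : Cfsg.AlgInt) * x, M.mul_mem_left _ hx, rfl⟩

theorem InM.mul_right {M : Ideal Cfsg.AlgInt} {z w : ℂ} (hw : IsIntegral ℤ w) (hz : InM M z) :
    InM M (z * w) := mul_comm w z ▸ hz.mul hw

theorem InM.neg {M : Ideal Cfsg.AlgInt} {z : ℂ} (hz : InM M z) : InM M (-z) := by
  obtain ⟨x, hx, rfl⟩ := hz
  exact ⟨-x, M.neg_mem hx, rfl⟩

theorem InM.add {M : Ideal Cfsg.AlgInt} {z w : ℂ} (hz : InM M z) (hw : InM M w) :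
    InM M (z + w) := by
  obtain ⟨x, hx, rfl⟩ := hz
  obtain ⟨y, hy, rfl⟩ := hw
  exact ⟨x + y, M.add_mem hx hy, rfl⟩

theorem InM.sum {M : Ideal Cfsg.AlgInt} {ι : Type*} (s : Finset ι) (f : ι → ℂ)
    (hf : ∀ i ∈ s, InM M (f i)) : InM M (∑ i ∈ s, f i) := by
  classical
  induction s using Finset.induction_on with
  | empty => simpa using InM.zero M
  | insert a s ha ih =>
    rw [Finset.sum_insert ha]
    exact (hf a (Finset.mem_insert_self a s)).add (ih fun i hi => hf i (Finset.mem_insert_of_mem hi))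

theorem inM_root_sub_one {p : ℕ} [Fact p.Prime] {M : Ideal Cfsg.AlgInt} [M.IsMaximal]
    (hpM : (p : Cfsg.AlgInt) ∈ M) {z : ℂ} (hz : z ^ p = 1) : InM M (z - 1) := by
  have : Nontrivial (Cfsg.AlgInt ⧸ M) :=
    Ideal.Quotient.nontrivial_iff.mpr (Ideal.IsMaximal.ne_top ‹M.IsMaximal›)
  have : CharP (Cfsg.AlgInt ⧸ M) p :=
    (CharP.charP_iff_prime_eq_zero (Fact.out : p.Prime)).mpr (by
      rw [← map_natCast (Ideal.Quotient.mk M), Ideal.Quotient.eq_zero_iff_mem]; exact hpM)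
  let w : Cfsg.AlgInt := ⟨z, isIntegral_of_pow_eq_one (Fact.out : p.Prime).ne_zero hz⟩
  have hw : w ^ p = 1 := Subtype.ext hz
  refine ⟨w - 1, ?_, rfl⟩
  rw [← Ideal.Quotient.eq_zero_iff_mem]
  refine eq_zero_of_pow_eq_zero (n := p) ?_
  rw [map_sub, sub_pow_char, ← map_pow, hw, map_one, one_pow, sub_self]

variable {C : Type u} [CommGroup C]

/-- A family `δ j` of conjugates of a sum of roots of unity times linear characters. -/
def IsRootComb (N : ℕ) (δ : ℕ → C → ℂ) : Prop :=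
  ∃ (k : ℕ) (ζ : Fin k → ℂ) (μ : Fin k → C →* ℂˣ), (∀ i, ζ i ^ N = 1) ∧
    ∀ j c, δ j c = ∑ i, ζ i ^ j * (μ i c : ℂ) ^ j

theorem isRootComb_of_fintype {N : ℕ} {δ : ℕ → C → ℂ} {ι : Type*} [Fintype ι] (ζ : ι → ℂ)
    (μ : ι → C →* ℂˣ) (hζ : ∀ i, ζ i ^ N = 1)
    (h : ∀ j c, δ j c = ∑ i, ζ i ^ j * (μ i c : ℂ) ^ j) : IsRootComb N δ := by
  let e := (Fintype.equivFin ι).symm
  exact ⟨Fintype.card ι, ζ ∘ e, μ ∘ e, fun i => hζ _, fun j c =>
    (h j c).trans (Fintype.sum_equiv e.symm _ _ fun i => by simp)⟩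

theorem isRootComb_one (N : ℕ) : IsRootComb N (1 : ℕ → C → ℂ) :=
  ⟨1, fun _ => 1, fun _ => 1, fun _ => one_pow N, fun j c => by simp⟩

theorem IsRootComb.mul {N : ℕ} {δ ε : ℕ → C → ℂ} (hδ : IsRootComb N δ) (hε : IsRootComb N ε) :
    IsRootComb N (δ * ε) := by
  obtain ⟨k, ζ, μ, hζ, hδ⟩ := hδ
  obtain ⟨l, η, ν, hη, hε⟩ := hε
  refine isRootComb_of_fintype (fun i : Fin k × Fin l => ζ i.1 * η i.2) (fun i => μ i.1 * ν i.2)
    (fun i => by rw [mul_pow, hζ, hη, one_mul]) fun j c => ?_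
  rw [Pi.mul_apply, Pi.mul_apply, hδ, hε, Finset.sum_mul_sum, ← Finset.sum_product',
    Finset.univ_product_univ]
  refine Finset.sum_congr rfl fun i _ => ?_
  simp only [MonoidHom.mul_apply, Units.val_mul]
  ring

/-- The defining properties of `δ` for an action `act` of `C` on `A`. -/
def IsDelta (N : ℕ) (M : Ideal Cfsg.AlgInt) {A : Type v} [AddCommGroup A]
    (act : C →* AddMonoid.End A) (δ : ℕ → C → ℂ) : Prop :=
  IsRootComb N δ ∧ ‖δ 1 1‖ = 1 ∧ (∃ z : ℤ, δ 1 1 = z) ∧ (∀ c, act c ≠ 1 → InM M (δ 1 c)) ∧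
    ∀ j : ℕ, j.Coprime N → ∀ c, ‖δ j c‖ ^ 2 * Nat.card {a : A // act c a = a} ≤ Nat.card A

variable [Finite C]

theorem exists_delta_irreducible {p : ℕ} [Fact p.Prime] (M : Ideal Cfsg.AlgInt) [M.IsMaximal]
    (hpM : (p : Cfsg.AlgInt) ∈ M) {N : ℕ} (hpN : p ∣ N) (hCN : Nat.card C ∣ N) {A : Type v} [AddCommGroup A] [Finite A]
    [Nontrivial A] (hexp : ∀ a : A, p • a = 0) (act : C →* AddMonoid.End A)
    (hirr : ∀ B : AddSubgroup A, (∀ c, ∀ a ∈ B, act c a ∈ B) → B = ⊥ ∨ B = ⊤) :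
    ∃ δ, IsDelta N M act δ := by
  classical
  have : Finite (AddMonoid.End A) := Finite.of_injective _ DFunLike.coe_injective
  let R : Subring (AddMonoid.End A) := Subring.closure (Set.range act)
  letI : CommRing R := Subring.closureCommRingOfComm (by
    rintro _ ⟨x, rfl⟩ _ ⟨y, rfl⟩
    rw [← map_mul, ← map_mul, mul_comm])
  have hcen : ∀ r ∈ R, ∀ c, r * act c = act c * r := fun r hr c =>
    congrArg Subtype.val (mul_comm (⟨r, hr⟩ : R) ⟨act c, Subring.subset_closure ⟨c, rfl⟩⟩)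
  have hker : ∀ r ∈ R, r ≠ 0 → ∀ a, r a = 0 → a = 0 := by
    intro r hr hr0 a ha
    rcases hirr (AddMonoidHom.ker r) (fun c b hb => by
      replace hb : r b = 0 := hb
      show (r * act c) b = 0
      rw [hcen r hr c]
      show act c (r b) = 0
      rw [hb, map_zero]) with h | h
    · exact (AddSubgroup.mem_bot.mp (h ▸ (AddMonoidHom.mem_ker.mpr ha : a ∈ AddMonoidHom.ker r)))
    · exact absurd (AddMonoidHom.ext fun b =>
        AddMonoidHom.mem_ker.mp (h.symm ▸ AddSubgroup.mem_top b : b ∈ AddMonoidHom.ker r)) hr0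
  obtain ⟨a₀, ha₀⟩ := exists_ne (0 : A)
  have : Nontrivial R := ⟨0, 1, fun h => ha₀ (by
    have h1 := DFunLike.congr_fun (congrArg Subtype.val h) a₀
    exact h1.symm)⟩
  have : NoZeroDivisors R := ⟨fun {r s} h => by
    by_contra hne
    rw [not_or] at hne
    refine hne.2 (Subtype.ext (AddMonoidHom.ext fun a => ?_))
    refine hker r r.2 (fun h0 => hne.1 (Subtype.ext h0)) _ ?_
    exact DFunLike.congr_fun (congrArg Subtype.val h) a⟩
  have : IsDomain R := NoZeroDivisors.to_isDomain R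
  letI : Field R := (Finite.isDomain_to_isField R).toField
  have := Fintype.ofFinite R
  have : CharP R p := (CharP.charP_iff_prime_eq_zero (Fact.out : p.Prime)).mpr
    (Subtype.ext (AddMonoidHom.ext fun a => by
      rw [SubringClass.coe_natCast]
      exact hexp a))
  have hcard : Fintype.card R ≤ Nat.card A := by
    rw [← Nat.card_eq_fintype_card]
    refine Nat.card_le_card_of_injective (fun r : R => (r : AddMonoid.End A) a₀) fun r s h => ?_
    by_contra hne
    refine ha₀ (hker (r - s : R) (r - s : R).2 (fun h0 => hne (sub_eq_zero.mp (Subtype.ext h0))) a₀ ?_)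
    show (r : AddMonoid.End A) a₀ - (s : AddMonoid.End A) a₀ = 0
    exact sub_eq_zero.mpr h
  let ι : C →* Rˣ := MonoidHom.toHomUnits
    { toFun := fun c => (⟨act c, Subring.subset_closure ⟨c, rfl⟩⟩ : R)
      map_one' := Subtype.ext (map_one act)
      map_mul' := fun x y => Subtype.ext (map_mul act x y) }
  have hι : ∀ c, ι c = 1 ↔ act c = 1 := fun c =>
    ⟨fun h => congrArg (fun u : Rˣ => ((u : R) : AddMonoid.End A)) h,
      fun h => Units.ext (Subtype.ext h)⟩
  haveI : NeZero (Monoid.exponent Rˣ) := ⟨Monoid.exponent_ne_zero_of_finite⟩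
  let e : Rˣ ≃* MulChar R ℂ := (MulChar.mulEquiv_units R ℂ).some.symm
  let χ : C →* MulChar R ℂ := e.toMonoidHom.comp ι
  have hχ : ∀ c, χ c = 1 ↔ act c = 1 := fun c => by
    rw [← hι c]
    exact e.map_eq_one_iff
  let ψ : AddChar R ℂ := AddChar.FiniteField.primitiveChar_to_Complex R
  have hψ : ψ.IsPrimitive := AddChar.FiniteField.primitiveChar_to_Complex_isPrimitive R
  have hψp : ∀ x, ψ x ^ p = 1 := fun x => by
    rw [← AddChar.map_nsmul_eq_pow, nsmul_eq_mul, CharP.cast_eq_zero, zero_mul,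
      AddChar.map_zero_eq_one]
  let μ : Rˣ → C →* ℂˣ := fun x =>
    { toFun := fun c => (χ c).toUnitHom x
      map_one' := Units.ext (by simp [MulChar.coe_toUnitHom])
      map_mul' := fun a b => Units.ext (by simp [MulChar.coe_toUnitHom]) }
  have hμ : ∀ x c, (μ x c : ℂ) = χ c (x : R) := fun x c => MulChar.coe_toUnitHom _ _
  refine ⟨fun j c => ∑ x : Rˣ, ψ (x : R) ^ j * (μ x c : ℂ) ^ j, ?_⟩
  have hne : (0 : R) ∉ (Finset.univ.map ⟨((↑) : Rˣ → R), Units.val_injective⟩) := by simp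
  have hgauss : ∀ j : ℕ, j ≠ 0 → ∀ c,
      ∑ x : Rˣ, ψ (x : R) ^ j * (μ x c : ℂ) ^ j = gaussSum (χ c ^ j) (ψ ^ j) := by
    intro j hj c
    rw [gaussSum, ← Finset.sum_subset (Finset.subset_univ
      (Finset.univ.map ⟨((↑) : Rˣ → R), Units.val_injective⟩)) fun y _ hy => ?_,
      Finset.sum_map]
    · refine Finset.sum_congr rfl fun x _ => ?_
      simp only [Function.Embedding.coeFn_mk, MulChar.pow_apply' _ hj, AddChar.pow_apply, hμ]
      ring
    · have hy0 : y = 0 := by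
        by_contra h
        exact hy (Finset.mem_map.mpr ⟨Units.mk0 y h, Finset.mem_univ _, rfl⟩)
      rw [hy0, MulChar.map_nonunit _ not_isUnit_zero, zero_mul]
  have hψne : ψ ^ 1 ≠ 1 := by
    rw [pow_one]
    intro h
    have := hψ one_ne_zero
    rw [AddChar.mulShift_one] at this
    exact this h
  refine ⟨isRootComb_of_fintype (fun x : Rˣ => ψ (x : R)) μ (fun x => ?_) fun _ _ => rfl,
    ?_, ⟨-1, ?_⟩, fun c hc => ?_, fun j hj c => ?_⟩
  · obtain ⟨t, rfl⟩ := hpN
    rw [pow_mul, hψp, one_pow]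
  · simp only
    rw [hgauss 1 one_ne_zero, map_one, one_pow, gaussSum_one_left hψne, norm_neg, norm_one]
  · simp only
    rw [hgauss 1 one_ne_zero, map_one, one_pow, gaussSum_one_left hψne]
    simp
  · have hne1 : χ c ≠ 1 := fun h => hc ((hχ c).mp h)
    simp only [pow_one]
    have hsum : ∑ x : Rˣ, (μ x c : ℂ) = 0 := by
      have h0 := MulChar.sum_eq_zero_of_ne_one hne1
      rw [← Finset.sum_subset (Finset.subset_univ
        (Finset.univ.map ⟨((↑) : Rˣ → R), Units.val_injective⟩)) fun y _ hy => ?_,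
        Finset.sum_map] at h0
      · simpa [hμ] using h0
      · have hy0 : y = 0 := by
          by_contra h
          exact hy (Finset.mem_map.mpr ⟨Units.mk0 y h, Finset.mem_univ _, rfl⟩)
        rw [hy0, MulChar.map_nonunit _ not_isUnit_zero]
    have e1 : ∑ x : Rˣ, ψ (x : R) * (μ x c : ℂ) = ∑ x : Rˣ, (μ x c : ℂ) * (ψ (x : R) - 1) := by
      simp only [mul_sub, mul_one, Finset.sum_sub_distrib, hsum, sub_zero]
      exact Finset.sum_congr rfl fun x _ => mul_comm _ _
    rw [e1]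
    refine InM.sum _ _ fun x _ => InM.mul ?_ (inM_root_sub_one hpM (hψp _))
    refine isIntegral_of_pow_eq_one (Nat.card_pos (α := C)).ne' ?_
    rw [← Units.val_pow_eq_pow_val, ← map_pow, pow_card_eq_one', map_one, Units.val_one]
  · have hj0 : j ≠ 0 := fun h => by
      rw [h, Nat.coprime_zero_left] at hj
      exact (Fact.out : p.Prime).one_lt.ne' (Nat.dvd_one.mp (hj ▸ hpN))
    simp only
    rw [hgauss j hj0]
    have hjp : ¬ p ∣ j := fun h => (Fact.out : p.Prime).one_lt.ne'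
      (Nat.dvd_one.mp (hj.gcd_eq_one ▸ Nat.dvd_gcd h hpN))
    have hψj : (ψ ^ j).IsPrimitive := by
      intro a ha
      rw [AddChar.pow_mulShift, AddChar.mulShift_mulShift]
      refine hψ (mul_ne_zero ?_ ha)
      rwa [Ne, CharP.cast_eq_zero_iff R p]
    have hψjne : ψ ^ j ≠ 1 := fun h => by
      have := hψj one_ne_zero
      rw [AddChar.mulShift_one] at this
      exact this h
    by_cases hc : act c = 1
    · rw [(hχ c).mpr hc, one_pow, gaussSum_one_left hψjne, norm_neg, norm_one, one_pow, one_mul]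
      exact_mod_cast Nat.card_le_card_of_injective (fun a : {a : A // act c a = a} => (a : A))
        Subtype.val_injective
    · have hfix : Nat.card {a : A // act c a = a} = 1 := by
        rw [Nat.card_eq_one_iff_unique]
        refine ⟨⟨fun a b => Subtype.ext ?_⟩, ⟨⟨0, map_zero _⟩⟩⟩
        have key : ∀ x : {a : A // act c a = a}, (x : A) = 0 := fun x => by
          refine hker (act c - 1) (R.sub_mem (Subring.subset_closure ⟨c, rfl⟩) R.one_mem)
            (fun h => hc (sub_eq_zero.mp h)) _ ?_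
          show act c (x : A) - (x : A) = 0
          rw [x.2, sub_self]
        rw [key a, key b]
      rw [hfix, Nat.cast_one, mul_one]
      have hne1 : χ c ^ j ≠ 1 := by
        intro h
        refine hc ((hχ c).mp ?_)
        have h2 : χ c ^ Nat.card C = 1 := by rw [← map_pow, pow_card_eq_one', map_one]
        exact orderOf_eq_one_iff.mp (Nat.eq_one_of_dvd_coprimes (hj.coprime_dvd_right hCN)
          (orderOf_dvd_of_pow_eq_one h) (orderOf_dvd_of_pow_eq_one h2))
      have hnorm : ((‖gaussSum (χ c ^ j) (ψ ^ j)‖ ^ 2 : ℝ) : ℂ) = (Fintype.card R : ℂ) := by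
        rw [Complex.ofReal_pow, ← Complex.mul_conj', ← gaussSum_mul_gaussSum_eq_card hne1 hψj,
          ← star_gaussSum_eq]
        rfl
      have : ‖gaussSum (χ c ^ j) (ψ ^ j)‖ ^ 2 = (Fintype.card R : ℝ) := by
        exact_mod_cast hnorm
      rw [this]
      exact_mod_cast hcard

end Cfsg.Agent.DegreeGraph
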