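import Cfsg.Agent.DegreeGraph.GaussDelta
import Cfsg.Agent.Chars.Linear
import Mathlib.GroupTheory.Complement
import Mathlib.GroupTheory.NoncommCoprod
import Mathlib.Algebra.BigOperators.GroupWithZero.Action
import Mathlib.GroupTheory.FiniteAbelian.Duality
import Mathlib.Data.Nat.ModEq
import Mathlib.Data.Nat.GCD.BigOperators

/-!
Knörr's bound: `k(GV) ≤ |V|` as soon as some vector has abelian centraliser in `G`.
-/

namespace Cfsg.Agent.DegreeGraph

open scoped ComplexConjugate

universe u v

variable {C : Type u} [CommGroup C] [Finite C]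

/-- A delta function exists for every coprime action of an abelian group. -/
theorem exists_delta {p : ℕ} [Fact p.Prime] (M : Ideal Cfsg.AlgInt) [M.IsMaximal]
    (hpM : (p : Cfsg.AlgInt) ∈ M) {N : ℕ} (hN : N ≠ 0) (hpN : p ∣ N) (hCN : Nat.card C ∣ N)
    (hpC : ¬ p ∣ Nat.card C) :
    ∀ (n : ℕ) (A : Type v) [AddCommGroup A] [Finite A], Nat.card A ≤ n → (∀ a : A, p • a = 0) →
      ∀ act : C →* AddMonoid.End A, ∃ δ, IsDelta N M act δ := by
  intro n
  induction n with
  | zero =>
    intro A _ _ h _ _
    exact absurd h (Nat.not_le.mpr Nat.card_pos)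
  | succ n ih =>
    intro A _ _ hn hexp act
    by_cases hirr : Nontrivial A ∧
        ∀ B : AddSubgroup A, (∀ c, ∀ a ∈ B, act c a ∈ B) → B = ⊥ ∨ B = ⊤
    · haveI := hirr.1
      exact exists_delta_irreducible M hpM hpN hCN hexp act hirr.2
    rcases subsingleton_or_nontrivial A with hA | hA
    · refine ⟨1, isRootComb_one N, by simp, ⟨1, by simp⟩, fun c hc => ?_, fun j _ c => ?_⟩
      · exact absurd (AddMonoidHom.ext fun a => Subsingleton.elim _ _) hc
      · simp only [Pi.one_apply, norm_one, one_pow, one_mul]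
        exact_mod_cast Nat.card_le_card_of_injective (fun a : {a : A // act c a = a} => (a : A))
          Subtype.val_injective
    push Not at hirr
    obtain ⟨B, hBinv, hB0, hB1⟩ := hirr hA
    -- the induced actions
    have happ : ∀ (c d : C) (a : A), act (c * d) a = act c (act d a) := fun c d a => by
      rw [map_mul]; rfl
    have hone : ∀ a : A, act 1 a = a := fun a => by rw [map_one]; rfl
    let endB : C → AddMonoid.End B := fun c =>
      { toFun := fun b => ⟨act c b, hBinv c b b.2⟩
        map_zero' := Subtype.ext (map_zero _)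
        map_add' := fun a b => Subtype.ext (map_add _ _ _) }
    let actB : C →* AddMonoid.End B :=
      { toFun := endB
        map_one' := AddMonoidHom.ext fun b => Subtype.ext (hone b)
        map_mul' := fun c d => AddMonoidHom.ext fun b => Subtype.ext (happ c d b) }
    let endQ : C → AddMonoid.End (A ⧸ B) := fun c =>
      QuotientAddGroup.map B B (act c) (fun b hb => hBinv c b hb)
    let actQ : C →* AddMonoid.End (A ⧸ B) :=
      { toFun := endQ
        map_one' := AddMonoidHom.ext fun q => by
          induction q using QuotientAddGroup.induction_on with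
          | H a => exact congrArg (QuotientAddGroup.mk : A → A ⧸ B) (hone a)
        map_mul' := fun c d => AddMonoidHom.ext fun q => by
          induction q using QuotientAddGroup.induction_on with
          | H a => exact congrArg (QuotientAddGroup.mk : A → A ⧸ B) (happ c d a) }
    have hmul := B.card_eq_card_quotient_mul_card_addSubgroup
    have hBgt : 1 < Nat.card B := (Nat.lt_iff_add_one_le).mpr (by
      rcases Nat.lt_or_ge 1 (Nat.card B) with h | h
      · exact h
      · exact absurd (AddSubgroup.eq_bot_of_card_le B h) hB0)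
    have hQgt : 1 < Nat.card (A ⧸ B) := by
      by_contra h
      refine hB1 (AddSubgroup.index_eq_one.mp ?_)
      have h0 : 0 < Nat.card (A ⧸ B) := Nat.card_pos
      show Nat.card (A ⧸ B) = 1
      omega
    obtain ⟨δ₁, hc₁, hn₁, ⟨z₁, hz₁⟩, hM₁, hb₁⟩ := ih B (by nlinarith) (fun b => Subtype.ext (by
      rw [AddSubmonoidClass.coe_nsmul]; exact hexp b)) actB
    obtain ⟨δ₂, hc₂, hn₂, ⟨z₂, hz₂⟩, hM₂, hb₂⟩ := ih (A ⧸ B) (by nlinarith) (fun q => by
      induction q using QuotientAddGroup.induction_on with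
      | H a => rw [← QuotientAddGroup.mk_nsmul, hexp, QuotientAddGroup.mk_zero]) actQ
    have hint : ∀ {δ : ℕ → C → ℂ}, IsRootComb N δ → ∀ c, N ≠ 0 → IsIntegral ℤ (δ 1 c) := by
      rintro δ ⟨k, ζ, μ, hζ, hδ⟩ c hN
      rw [hδ]
      refine IsIntegral.sum _ fun i _ => ?_
      rw [pow_one, pow_one]
      refine (isIntegral_of_pow_eq_one hN (hζ i)).mul
        (isIntegral_of_pow_eq_one (Nat.card_pos (α := C)).ne' ?_)
      rw [← Units.val_pow_eq_pow_val, ← map_pow, pow_card_eq_one', map_one, Units.val_one]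
    refine ⟨δ₁ * δ₂, hc₁.mul hc₂, ?_, ⟨z₁ * z₂, ?_⟩, fun c hc => ?_, fun j hj c => ?_⟩
    · rw [Pi.mul_apply, Pi.mul_apply, norm_mul, hn₁, hn₂, one_mul]
    · rw [Pi.mul_apply, Pi.mul_apply, hz₁, hz₂, Int.cast_mul]
    · rw [Pi.mul_apply, Pi.mul_apply]
      by_cases h1 : actB c = 1
      · by_cases h2 : actQ c = 1
        · exfalso
          refine hc (AddMonoidHom.ext fun a => ?_)
          set b := act c a - a with hb
          have hbB : b ∈ B := by
            have := DFunLike.congr_fun h2 (QuotientAddGroup.mk a)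
            exact (QuotientAddGroup.eq_iff_sub_mem).mp this
          have hfixb : act c b = b := congrArg Subtype.val (DFunLike.congr_fun h1 (⟨b, hbB⟩ : B))
          have hk : ∀ k : ℕ, act (c ^ k) a = a + k • b := by
            intro k
            induction k with
            | zero => rw [pow_zero, hone, zero_smul, add_zero]
            | succ k ihk =>
              rw [pow_succ', happ, ihk, map_add, map_nsmul, hfixb, hb, succ_nsmul]
              abel
          have h3 := hk (Nat.card C)
          rw [pow_card_eq_one', hone] at h3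
          have h4 : Nat.card C • b = 0 := by
            have h5 := congrArg (fun x => -a + x) h3
            simpa using h5.symm
          have h6 : b = 0 := by
            obtain ⟨s, t, hst⟩ := Nat.Coprime.cast (R := ℤ)
              ((Nat.Prime.coprime_iff_not_dvd (Fact.out : p.Prime)).mpr hpC)
            have : (s * (p : ℤ) + t * (Nat.card C : ℤ)) • b = (1 : ℤ) • b := by rw [hst]
            rw [one_smul, add_smul, mul_smul, mul_smul, natCast_zsmul, natCast_zsmul, hexp, h4,
              smul_zero, smul_zero, add_zero] at this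
            exact this.symm
          rw [hb, sub_eq_zero] at h6
          exact h6
        · exact (hM₂ c h2).mul (hint hc₁ c hN)
      · exact (hM₁ c h1).mul_right (hint hc₂ c hN)
    · rw [Pi.mul_apply, Pi.mul_apply, norm_mul, mul_pow]
      let fixS : AddSubgroup A :=
        { carrier := {a | act c a = a}
          zero_mem' := map_zero _
          add_mem' := fun {a b} ha hb => by
            show act c (a + b) = a + b
            rw [map_add]; exact congrArg₂ (· + ·) ha hb
          neg_mem' := fun {a} ha => by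
            show act c (-a) = -a
            rw [map_neg]; exact congrArg Neg.neg ha }
      have hfix : Nat.card {a : A // act c a = a} ≤
          Nat.card {b : B // actB c b = b} * Nat.card {q : A ⧸ B // actQ c q = q} := by
        let f : fixS →+ A ⧸ B := (QuotientAddGroup.mk' B).comp fixS.subtype
        have h1 : Nat.card fixS = Nat.card (fixS ⧸ f.ker) * Nat.card f.ker :=
          f.ker.card_eq_card_quotient_mul_card_addSubgroup
        rw [Nat.card_congr (QuotientAddGroup.quotientKerEquivRange f).toEquiv, mul_comm] at h1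
        show Nat.card fixS ≤ _
        rw [h1]
        refine Nat.mul_le_mul
          (Nat.card_le_card_of_injective (fun x : f.ker =>
            (⟨⟨(x.1 : A), (QuotientAddGroup.eq_zero_iff _).mp x.2⟩, Subtype.ext x.1.2⟩ :
              {b : B // actB c b = b})) fun x y h =>
            Subtype.ext (Subtype.ext (congrArg (fun z : {b : B // actB c b = b} => ((z.1 : B) : A)) h)))
          (Nat.card_le_card_of_injective (fun q : f.range =>
            (⟨q.1, by
              obtain ⟨x, hx⟩ := q.2
              rw [← hx]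
              exact congrArg (QuotientAddGroup.mk : A → A ⧸ B) x.2⟩ :
              {q : A ⧸ B // actQ c q = q})) fun x y h =>
            Subtype.ext (congrArg (fun z : {q : A ⧸ B // actQ c q = q} => z.1) h))
      have hfixR : (Nat.card {a : A // act c a = a} : ℝ) ≤
          Nat.card {b : B // actB c b = b} * Nat.card {q : A ⧸ B // actQ c q = q} := by
        exact_mod_cast hfix
      have hmulR : (Nat.card A : ℝ) = Nat.card (A ⧸ B) * Nat.card B := by exact_mod_cast hmul
      calc ‖δ₁ j c‖ ^ 2 * ‖δ₂ j c‖ ^ 2 * (Nat.card {a : A // act c a = a} : ℝ)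
          ≤ ‖δ₁ j c‖ ^ 2 * ‖δ₂ j c‖ ^ 2 *
            (Nat.card {b : B // actB c b = b} * Nat.card {q : A ⧸ B // actQ c q = q}) := by gcongr
        _ = (‖δ₁ j c‖ ^ 2 * Nat.card {b : B // actB c b = b}) *
            (‖δ₂ j c‖ ^ 2 * Nat.card {q : A ⧸ B // actQ c q = q}) := by ring
        _ ≤ (Nat.card B : ℝ) * Nat.card (A ⧸ B) :=
            mul_le_mul (hb₁ j hj c) (hb₂ j hj c) (by positivity) (Nat.cast_nonneg _)
        _ = Nat.card A := by rw [hmulR, mul_comm]

/-- The conjugation action of a subgroup on an abelian normal subgroup. -/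
def conjAct' {X : Type*} [Group X] (V : Subgroup X) [V.Normal] (K : Subgroup X) :
    K →* AddMonoid.End (Additive V) where
  toFun k := MonoidHom.toAdditive (MulAut.conjNormal (H := V) (k : X)).toMonoidHom
  map_one' := by
    refine AddMonoidHom.ext fun a => ?_
    show Additive.ofMul (MulAut.conjNormal (H := V) ((1 : K) : X) (Additive.toMul a)) = a
    rw [Subgroup.coe_one, map_one]
    rfl
  map_mul' x y := by
    refine AddMonoidHom.ext fun a => ?_
    show Additive.ofMul (MulAut.conjNormal (H := V) ((x * y : K) : X) (Additive.toMul a)) = _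
    rw [Subgroup.coe_mul, map_mul]
    rfl

theorem conjAct'_apply {X : Type*} [Group X] (V : Subgroup X) [V.Normal] (K : Subgroup X) (k : K)
    (a : Additive V) :
    ((Additive.toMul (conjAct' V K k a) : V) : X) = k * (Additive.toMul a : V) * (k : X)⁻¹ := rfl

/-- Knörr's theorem on vectors with abelian centraliser. -/
theorem card_conjClasses_le_of_abelian_centralizer {X : Type*} [Group X] [Finite X] {p : ℕ}
    [Fact p.Prime] (V : Subgroup X) [V.Normal] (hVexp : ∀ w ∈ V, w ^ p = 1)
    (hidx : ¬ p ∣ V.index) (hself : Subgroup.centralizer (V : Set X) = V) (G : Subgroup X)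
    (hGV : Subgroup.IsComplement' V G) (w : X) (hw : w ∈ V)
    (hab : ∀ a ∈ G ⊓ Subgroup.centralizer ({w} : Set X),
      ∀ b ∈ G ⊓ Subgroup.centralizer ({w} : Set X), a * b = b * a) :
    Nat.card (ConjClasses X) ≤ Nat.card V := by
  classical
  have := Fintype.ofFinite X
  have hVab : ∀ a ∈ V, ∀ b ∈ V, a * b = b * a := fun a ha b hb =>
    (Subgroup.mem_centralizer_iff.mp (hself.symm ▸ hb : b ∈ Subgroup.centralizer (V : Set X)) a ha)
  letI : CommGroup V := { V.toGroup with mul_comm := fun a b => Subtype.ext (hVab _ a.2 _ b.2) }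
  let K : Subgroup X := G ⊓ Subgroup.centralizer ({w} : Set X)
  letI : CommGroup K := { K.toGroup with mul_comm := fun a b => Subtype.ext (hab _ a.2 _ b.2) }
  have := Fintype.ofFinite K
  obtain ⟨M, hM, hpM⟩ := exists_isMaximal_mem p
  let N := Nat.card X * p
  have hN0 : N ≠ 0 := Nat.mul_ne_zero Nat.card_pos.ne' (Fact.out : p.Prime).ne_zero
  have hpK : ¬ p ∣ Nat.card K := by
    intro h
    refine hidx ?_
    have h1 : Nat.card K ∣ Nat.card G := Subgroup.card_dvd_of_le inf_le_left
    rw [hGV.symm.index_eq_card]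
    exact h.trans h1
  have hKN : Nat.card K ∣ N := (Subgroup.card_subgroup_dvd_card K).trans (dvd_mul_right _ _)
  obtain ⟨δ, hδc, hδ1, ⟨z, hz⟩, hδM, hδb⟩ :=
    exists_delta (C := K) M hpM hN0 (Dvd.intro_left _ rfl : p ∣ N) hKN hpK (Nat.card (Additive V))
      (Additive V) le_rfl (fun a => Additive.toMul.injective (Subtype.ext (by
        rw [toMul_nsmul, toMul_zero, SubmonoidClass.coe_pow, Subgroup.coe_one]
        exact hVexp _ (Additive.toMul a).2))) (conjAct' V K)
  have hfaith : ∀ c : K, conjAct' V K c = 1 → c = 1 := by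
    intro c hc
    have hcV : (c : X) ∈ Subgroup.centralizer (V : Set X) := by
      refine Subgroup.mem_centralizer_iff.mpr fun a ha => ?_
      have h1 := congrArg (fun f : AddMonoid.End (Additive V) =>
        ((Additive.toMul (f (Additive.ofMul ⟨a, ha⟩)) : V) : X)) hc
      simp only [conjAct'_apply] at h1
      have h2 : (c : X) * a * (c : X)⁻¹ = a := h1
      rw [mul_inv_eq_iff_eq_mul] at h2
      exact h2.symm
    rw [hself] at hcV
    exact Subtype.ext (Subgroup.disjoint_def.mp hGV.disjoint hcV c.2.1)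
  -- the expansion of a character on the coset of w
  let φ : K × Subgroup.zpowers w →* X :=
    MonoidHom.noncommCoprod K.subtype (Subgroup.zpowers w).subtype fun c u => by
      obtain ⟨i, hi⟩ := Subgroup.mem_zpowers_iff.mp u.2
      have : Commute (c : X) w := Subgroup.mem_centralizer_singleton_iff.mp c.2.2
      simpa [← hi] using this.zpow_right i
  let w' : Subgroup.zpowers w := ⟨w, Subgroup.mem_zpowers w⟩
  have hφ : ∀ (c : K) (j : ℕ), φ ((c, w') ^ j) = ((c : X) * w) ^ j := fun c j => by
    rw [map_pow]; rfl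
  have hexpand : ∀ χ : Cfsg.IrrCharacter X, ∃ (k : ℕ) (η : Fin k → ℂ) (ν : Fin k → K →* ℂˣ),
      (∀ t, η t ^ N = 1) ∧
        ∀ (j : ℕ) (c : K), (χ : X → ℂ) (((c : X) * w) ^ j) = ∑ t, η t ^ j * (ν t c : ℂ) ^ j := by
    intro χ
    have := Fintype.ofFinite (K × Subgroup.zpowers w)
    have hres : Cfsg.IsCharacter (K × Subgroup.zpowers w) ((χ : X → ℂ) ∘ φ) := by
      obtain ⟨d, ρ, _, hρ⟩ := χ.2
      exact ⟨d, ρ.comp φ, funext fun x => congrFun hρ (φ x)⟩
    obtain ⟨m, -, hm⟩ := Cfsg.Agent.Chars.exists_eq_sum_nsmul hres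
    have hlin : ∀ Φ : Cfsg.IrrCharacter (K × Subgroup.zpowers w),
        ∃ f : (K × Subgroup.zpowers w) →* ℂˣ, ∀ x, (Φ : _ → ℂ) x = (f x : ℂ) := by
      intro Φ
      obtain ⟨f, hf⟩ := Cfsg.Agent.Chars.exists_hom_of_degree_one
        (Cfsg.Agent.Chars.irr_isCharacter Φ) (Cfsg.Agent.Chars.irr_apply_one_of_comm (fun a b =>
          Prod.ext (mul_comm _ _) (by
            obtain ⟨i, hi⟩ := Subgroup.mem_zpowers_iff.mp a.2.2
            obtain ⟨k, hk⟩ := Subgroup.mem_zpowers_iff.mp b.2.2
            refine Subtype.ext ?_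
            show (a.2 : X) * b.2 = b.2 * a.2
            rw [← hi, ← hk]
            exact (Commute.zpow_zpow_self w i k).eq)) Φ.2)
      exact ⟨f, fun x => congrFun hf x⟩
    choose f hf using hlin
    let ι := Σ Φ : Cfsg.IrrCharacter (K × Subgroup.zpowers w), Fin (m Φ)
    let e := (Fintype.equivFin ι).symm
    refine ⟨Fintype.card ι, fun t => (f (e t).1 (1, w') : ℂ),
      fun t => (f (e t).1).comp (MonoidHom.inl K _), fun t => ?_, fun j c => ?_⟩
    · have hx : ((1 : K), w') ^ Nat.card X = 1 := by
        refine Prod.ext (by simp) (Subtype.ext ?_)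
        rw [Prod.pow_snd, SubmonoidClass.coe_pow]
        exact pow_card_eq_one'
      rw [← Units.val_pow_eq_pow_val, ← map_pow, show N = Nat.card X * p from rfl, pow_mul, hx,
        one_pow, map_one, Units.val_one]
    · have hpt := congrFun hm ((c, w') ^ j)
      rw [Function.comp_apply, hφ] at hpt
      rw [hpt, Finset.sum_apply, Fintype.sum_equiv e _
        (fun s : ι => (f s.1 (1, w') : ℂ) ^ j * ((f s.1).comp (MonoidHom.inl K _) c : ℂ) ^ j)
        (fun t => rfl), Fintype.sum_sigma]
      refine Finset.sum_congr rfl fun Φ _ => ?_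
      dsimp only
      rw [Pi.smul_apply, hf, map_pow, Units.val_pow_eq_pow_val, Finset.sum_const, Finset.card_univ,
        Fintype.card_fin, ← mul_pow, ← Units.val_mul, MonoidHom.comp_apply, ← map_mul]
      simp [MonoidHom.inl_apply]
  choose kt η ν hη hν using hexpand
  obtain ⟨kd, ζ, μ, hζ, hδ⟩ := hδc
  have := Fintype.ofFinite (K →* ℂˣ)
  have hKX : ∀ (c : K), c ^ Nat.card X = 1 := fun c => Subtype.ext (by
    rw [SubmonoidClass.coe_pow]; exact pow_card_eq_one')
  -- the coefficients and their conjugates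
  let a : ℕ → (Σ _ : Cfsg.IrrCharacter X, K →* ℂˣ) → ℂ := fun j i =>
    ∑ t ∈ (Finset.univ : Finset (Fin kd × Fin (kt i.1))).filter
      (fun t => μ t.1 * ν i.1 t.2 = i.2), (ζ t.1 * η i.1 t.2) ^ j
  have hθ : ∀ (j : ℕ) (χ : Cfsg.IrrCharacter X) (c : K),
      δ j c * (χ : X → ℂ) (((c : X) * w) ^ j) =
        ∑ ψ : K →* ℂˣ, a j ⟨χ, ψ⟩ * (ψ c : ℂ) ^ j := by
    intro j χ c
    rw [hδ, hν, Finset.sum_mul_sum, ← Finset.sum_product', Finset.univ_product_univ,
      ← Finset.sum_fiberwise (Finset.univ : Finset (Fin kd × Fin (kt χ)))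
        (fun i => μ i.1 * ν χ i.2)]
    refine Finset.sum_congr rfl fun ψ _ => ?_
    simp only [a, Finset.sum_mul]
    refine Finset.sum_congr rfl fun i hi => ?_
    rw [← (Finset.mem_filter.mp hi).2, MonoidHom.mul_apply, Units.val_mul]
    ring
  -- orthogonality of the linear characters
  have horth : ∀ ψ φ : K →* ℂˣ,
      ∑ c : K, (ψ c : ℂ) * conj (φ c : ℂ) = if ψ = φ then (Nat.card K : ℂ) else 0 := by
    intro ψ φ
    have h1 : ∀ c : K, conj (φ c : ℂ) = ((φ c)⁻¹ : ℂˣ) := fun c => by
      rw [Units.val_inv_eq_inv_val, Complex.inv_eq_conj]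
      refine Complex.norm_eq_one_of_pow_eq_one ?_ (Nat.card_pos (α := K)).ne'
      rw [← Units.val_pow_eq_pow_val, ← map_pow, pow_card_eq_one', map_one, Units.val_one]
    have h2 := sum_hom_units ((Units.coeHom ℂ).comp (ψ * φ⁻¹))
    simp only [h1, ← Units.val_mul]
    rw [Nat.card_eq_fintype_card]
    refine Eq.trans ?_ (h2.trans ?_)
    · exact Finset.sum_congr rfl fun c _ => rfl
    · by_cases h : ψ = φ
      · subst h
        rw [if_pos rfl, if_pos (MonoidHom.ext fun c => by simp)]
      · rw [if_neg h, if_neg]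
        · simp
        · intro he
          refine h (MonoidHom.ext fun c => ?_)
          have h3 : ((ψ c * (φ c)⁻¹ : ℂˣ) : ℂ) = ((1 : ℂˣ) : ℂ) := DFunLike.congr_fun he c
          exact mul_inv_eq_one.mp (Units.ext h3)
  have hmem : ∀ i, a 1 i ∈ rootField N := fun i => sum_mem fun t _ => pow_mem
    (mem_rootField hN0 (by rw [mul_pow, hζ, hη, one_mul])) _
  have := finiteDimensional_rootField hN0
  have hwp : w ^ p = 1 := hVexp w hw
  -- non-vanishing
  have hnM : ∀ χ : Cfsg.IrrCharacter X, ¬ InM M (δ 1 1 * (χ : X → ℂ) w) := by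
    intro χ hbad
    obtain ⟨d, hd, hdvd⟩ := exists_degree_dvd_index V hVab χ.2
    obtain ⟨b, -, hb⟩ := (Nat.dvd_prime_pow (Fact.out : p.Prime)).mp
      (show orderOf w ∣ p ^ 1 by rw [pow_one]; exact orderOf_dvd_of_pow_eq_one hwp)
    obtain ⟨x, hx, hxv⟩ := exists_congr_degree M hpM (Cfsg.Agent.Chars.irr_isCharacter χ) hb
    have h1 : InM M (δ 1 1 * (χ : X → ℂ) w - δ 1 1 * ((χ : X → ℂ) w - (χ : X → ℂ) 1)) := by
      rw [sub_eq_add_neg]
      refine hbad.add (InM.neg (InM.mul ?_ ⟨x, hx, hxv⟩))
      rw [hz]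
      exact isIntegral_algebraMap (R := ℤ) (x := z)
    rw [← mul_sub, sub_sub_cancel, hd, hz] at h1
    have hz1 : z.natAbs = 1 := by
      have h := hδ1
      rw [hz, Complex.norm_intCast] at h
      have h' : (|z| : ℤ) = 1 := by exact_mod_cast h
      rw [Int.abs_eq_natAbs] at h'
      exact_mod_cast h'
    obtain ⟨y, hy, hy'⟩ := h1
    have hdM : (d : Cfsg.AlgInt) ∈ M := by
      have e : y = (z : Cfsg.AlgInt) * (d : Cfsg.AlgInt) := Subtype.ext (by rw [hy']; simp)
      rcases Int.natAbs_eq z with h | h <;> rw [hz1] at h <;>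
        simp only [h, Nat.cast_one, Int.cast_neg, Int.cast_one, one_mul, neg_one_mul] at e
      · rw [← e]; exact hy
      · rw [show (d : Cfsg.AlgInt) = -y by rw [e, neg_neg]]; exact M.neg_mem hy
    obtain ⟨s, t, hst⟩ := Nat.Coprime.cast (R := ℤ) ((Nat.Prime.coprime_iff_not_dvd
      (Fact.out : p.Prime)).mpr (fun h => hidx (h.trans hdvd)))
    refine (Ideal.IsMaximal.ne_top hM) ((Ideal.eq_top_iff_one M).mpr ?_)
    have h2 : ((s * (p : ℤ) + t * (d : ℤ) : ℤ) : Cfsg.AlgInt) = 1 := by rw [hst]; simp
    rw [← h2, Int.cast_add, Int.cast_mul, Int.cast_mul, Int.cast_natCast, Int.cast_natCast]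
    exact M.add_mem (M.mul_mem_left _ hpM) (M.mul_mem_left _ hdM)
  have hne : ∀ i, a 1 i ≠ 0 := by
    rintro ⟨χ, ψ⟩ h0
    have hsum : ∑ c : K, (δ 1 c * (χ : X → ℂ) (((c : X) * w) ^ 1)) * conj (ψ c : ℂ) = 0 := by
      simp only [hθ, Finset.sum_mul]
      rw [Finset.sum_comm]
      refine Finset.sum_eq_zero fun φ _ => ?_
      simp only [pow_one, mul_assoc, ← Finset.mul_sum, horth]
      by_cases h : φ = ψ
      · subst h; rw [h0, zero_mul]
      · rw [if_neg h, mul_zero]
    rw [Finset.sum_eq_add_sum_sdiff_singleton_of_mem (Finset.mem_univ 1)] at hsum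
    refine hnM χ ?_
    simp only [Subgroup.coe_one, one_mul, pow_one, map_one, Units.val_one, mul_one] at hsum
    rw [eq_neg_of_add_eq_zero_left hsum]
    refine InM.neg (InM.sum _ _ fun c hc => ?_)
    rw [mul_assoc]
    refine InM.mul_right ?_ (hδM c fun h => (Finset.mem_sdiff.mp hc).2
      (Finset.mem_singleton.mpr (hfaith c h)))
    refine (isIntegral_value (Cfsg.Agent.Chars.irr_isCharacter χ) _).mul ?_
    refine isIntegral_of_pow_eq_one (Nat.card_pos (α := K)).ne' ?_
    rw [← map_pow, ← Units.val_pow_eq_pow_val, ← map_pow, pow_card_eq_one', map_one, Units.val_one,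
      map_one]
  -- the conjugate square sums
  have hcard : Fintype.card (K →* ℂˣ) = Nat.card K := by
    haveI : NeZero (Monoid.exponent K) := ⟨Monoid.exponent_ne_zero_of_finite⟩
    rw [← Nat.card_eq_fintype_card]
    exact CommGroup.card_monoidHom_of_hasEnoughRootsOfUnity K ℂ
  have hbound : ∀ σ : rootField N →ₐ[ℚ] ℂ,
      ∑ i, ‖σ ⟨a 1 i, hmem i⟩‖ ^ 2 ≤ (Nat.card K : ℝ) * Nat.card V := by
    intro σ
    obtain ⟨j, hj, hσ⟩ := exists_pow_rootField hN0 σ
    have hσa : ∀ i, σ ⟨a 1 i, hmem i⟩ = a j i := by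
      intro i
      have hroot : ∀ t : Fin kd × Fin (kt i.1), (ζ t.1 * η i.1 t.2) ^ N = 1 := fun t => by
        rw [mul_pow, hζ, hη, one_mul]
      have e : (⟨a 1 i, hmem i⟩ : rootField N) =
          ∑ t ∈ (Finset.univ : Finset (Fin kd × Fin (kt i.1))).filter
            (fun t => μ t.1 * ν i.1 t.2 = i.2),
            (⟨ζ t.1 * η i.1 t.2, mem_rootField hN0 (hroot t)⟩ : rootField N) :=
        Subtype.ext (by simp [a])
      rw [e, map_sum]
      exact Finset.sum_congr rfl fun t _ => hσ _ (hroot t)
    simp only [hσa]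
    have hjK : j.Coprime (Nat.card K) := hj.coprime_dvd_right hKN
    -- Parseval
    have hpars : ∀ χ : Cfsg.IrrCharacter X, (Nat.card K : ℝ) * ∑ ψ, ‖a j ⟨χ, ψ⟩‖ ^ 2 =
        ∑ c : K, ‖δ j c‖ ^ 2 * ‖(χ : X → ℂ) (((c : X) * w) ^ j)‖ ^ 2 := by
      intro χ
      apply Complex.ofReal_injective
      simp only [Complex.ofReal_mul, Complex.ofReal_sum, Complex.ofReal_natCast, Complex.ofReal_pow]
      have h1 : ∀ c : K, (‖δ j c‖ : ℂ) ^ 2 * (‖(χ : X → ℂ) (((c : X) * w) ^ j)‖ : ℂ) ^ 2 =
          ∑ ψ, ∑ φ, a j ⟨χ, ψ⟩ * conj (a j ⟨χ, φ⟩) *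
            ((ψ (c ^ j) : ℂ) * conj (φ (c ^ j) : ℂ)) := fun c => by
        rw [← mul_pow, ← Complex.ofReal_mul, ← norm_mul, ← Complex.mul_conj', hθ, map_sum,
          Finset.sum_mul_sum]
        refine Finset.sum_congr rfl fun ψ _ => Finset.sum_congr rfl fun φ _ => ?_
        simp only [map_pow, Units.val_pow_eq_pow_val, map_mul]
        ring
      simp only [h1]
      rw [Finset.sum_comm, Finset.mul_sum]
      refine Finset.sum_congr rfl fun ψ _ => ?_
      rw [Finset.sum_comm, Finset.sum_eq_single ψ]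
      · rw [← Finset.mul_sum, Fintype.sum_equiv (powCoprime hjK.symm)
          (fun c : K => (ψ (c ^ j) : ℂ) * conj (ψ (c ^ j) : ℂ))
          (fun d : K => (ψ d : ℂ) * conj (ψ d : ℂ)) (fun c => rfl), horth, if_pos rfl,
          Complex.mul_conj']
        ring
      · intro φ _ hne
        rw [← Finset.mul_sum, Fintype.sum_equiv (powCoprime hjK.symm)
          (fun c : K => (ψ (c ^ j) : ℂ) * conj (φ (c ^ j) : ℂ))
          (fun d : K => (ψ d : ℂ) * conj (φ d : ℂ)) (fun c => rfl), horth, if_neg hne.symm,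
          mul_zero]
      · simp
    have hcol : ∀ c : K, ∑ χ : Cfsg.IrrCharacter X, ‖(χ : X → ℂ) (((c : X) * w) ^ j)‖ ^ 2 =
        (Nat.card ↥(Subgroup.centralizer ({((c : X) * w) ^ j} : Set X)) : ℝ) := by
      intro c
      have h2 := Cfsg.Agent.Chars.column_orth (((c : X) * w) ^ j) (((c : X) * w) ^ j)
      rw [if_pos (IsConj.refl _)] at h2
      apply Complex.ofReal_injective
      rw [Complex.ofReal_sum, Complex.ofReal_natCast, ← h2]
      exact Finset.sum_congr rfl fun χ _ => by rw [Complex.mul_conj', Complex.ofReal_pow]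
    have hcent : ∀ c : K, Nat.card ↥(Subgroup.centralizer ({((c : X) * w) ^ j} : Set X)) ≤
        Nat.card K * Nat.card {a : Additive V // conjAct' V K c a = a} := by
      intro c
      obtain ⟨m, hm⟩ := exists_pow_eq_self_of_coprime (x := (c : X) * w)
        (Nat.Coprime.coprime_dvd_right ((orderOf_dvd_natCard _).trans (dvd_mul_right _ p)) hj)
      have hcw : Commute (c : X) w := Subgroup.mem_centralizer_singleton_iff.mp c.2.2
      obtain ⟨k, hk1, hk2⟩ := Nat.chineseRemainder
        ((Nat.Prime.coprime_iff_not_dvd (Fact.out : p.Prime)).mpr hpK) 1 0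
      have hwk : ((c : X) * w) ^ k = w := by
        have hc0 : (c : X) ^ k = 1 := by
          rw [← SubmonoidClass.coe_pow, orderOf_dvd_iff_pow_eq_one.mp
            ((orderOf_dvd_natCard c).trans (Nat.modEq_zero_iff_dvd.mp hk2)), Subgroup.coe_one]
        have hw1 : w ^ k = w ^ 1 := by
          rw [← pow_mod_orderOf w k, ← pow_mod_orderOf w 1]
          congr 1
          exact Nat.ModEq.of_dvd (orderOf_dvd_of_pow_eq_one hwp) hk1
        rw [hcw.mul_pow, hc0, one_mul, hw1, pow_one]
      have key : ∀ a ∈ V, ∀ g ∈ G, Commute (a * g) (((c : X) * w) ^ j) →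
          g ∈ K ∧ (c : X) * a * (c : X)⁻¹ = a := by
        intro a ha g hg hx
        have hxcw : Commute (a * g) ((c : X) * w) := by
          have := hx.pow_right m
          rwa [hm] at this
        have hxw : Commute (a * g) w := by
          have := hxcw.pow_right k
          rwa [hwk] at this
        have hxc : Commute (a * g) (c : X) := by
          have := hxcw.mul_right hxw.inv_right
          rwa [mul_inv_cancel_right] at this
        have haw : Commute a w := hVab _ ha _ hw
        have hgw : Commute g w := by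
          have := (haw.inv_left).mul_left hxw
          rwa [inv_mul_cancel_left] at this
        have hgK : g ∈ K := ⟨hg, Subgroup.mem_centralizer_singleton_iff.mpr hgw⟩
        have hgc : Commute g (c : X) := hab _ hgK _ c.2
        have hac : Commute a (c : X) := by
          have := hxc.mul_left hgc.inv_left
          rwa [mul_inv_cancel_right] at this
        exact ⟨hgK, by rw [← hac.eq, mul_inv_cancel_right]⟩
      have hdecomp : ∀ x : ↥(Subgroup.centralizer ({((c : X) * w) ^ j} : Set X)),
          ((hGV.equiv (x : X)).2 : X) ∈ K ∧ (c : X) * ((hGV.equiv (x : X)).1 : X) * (c : X)⁻¹ =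
            (hGV.equiv (x : X)).1 := by
        intro x
        refine key _ (hGV.equiv (x : X)).1.2 _ (hGV.equiv (x : X)).2.2 ?_
        rw [hGV.equiv_fst_mul_equiv_snd]
        exact Subgroup.mem_centralizer_singleton_iff.mp x.2
      rw [← Nat.card_prod]
      refine Nat.card_le_card_of_injective (fun x : ↥(Subgroup.centralizer
        ({((c : X) * w) ^ j} : Set X)) => ((⟨((hGV.equiv (x : X)).2 : X), (hdecomp x).1⟩ : K),
          (⟨Additive.ofMul (hGV.equiv (x : X)).1, Additive.toMul.injective (Subtype.ext (by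
            rw [conjAct'_apply]; exact (hdecomp x).2))⟩ :
            {a : Additive V // conjAct' V K c a = a}))) ?_
      intro x y h
      simp only [Prod.mk.injEq, Subtype.mk.injEq, EmbeddingLike.apply_eq_iff_eq] at h
      exact Subtype.ext (hGV.equiv.injective (Prod.ext h.2 (Subtype.ext h.1)))
    rw [Fintype.sum_sigma]
    have hKpos : (0 : ℝ) < Nat.card K := Nat.cast_pos.mpr Nat.card_pos
    refine le_of_mul_le_mul_left ?_ hKpos
    rw [Finset.mul_sum, Finset.sum_congr rfl fun χ _ => hpars χ, Finset.sum_comm]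
    calc ∑ c : K, ∑ χ : Cfsg.IrrCharacter X, ‖δ j c‖ ^ 2 * ‖(χ : X → ℂ) (((c : X) * w) ^ j)‖ ^ 2
        ≤ ∑ _c : K, (Nat.card K : ℝ) * Nat.card V := by
          refine Finset.sum_le_sum fun c _ => ?_
          rw [← Finset.mul_sum, hcol]
          have h1 : (Nat.card ↥(Subgroup.centralizer ({((c : X) * w) ^ j} : Set X)) : ℝ) ≤
              Nat.card K * Nat.card {a : Additive V // conjAct' V K c a = a} := by
            exact_mod_cast hcent c
          have h2 := hδb j hj c
          rw [Nat.card_congr (Additive.toMul (α := V))] at h2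
          calc ‖δ j c‖ ^ 2 * (Nat.card ↥(Subgroup.centralizer ({((c : X) * w) ^ j} : Set X)) : ℝ)
              ≤ ‖δ j c‖ ^ 2 * (Nat.card K * Nat.card {a : Additive V // conjAct' V K c a = a}) := by
                gcongr
            _ = Nat.card K * (‖δ j c‖ ^ 2 * Nat.card {a : Additive V // conjAct' V K c a = a}) := by
                ring
            _ ≤ Nat.card K * Nat.card V := mul_le_mul_of_nonneg_left h2 hKpos.le
      _ = (Nat.card K : ℝ) * ((Nat.card K : ℝ) * Nat.card V) := by
          rw [Finset.sum_const, nsmul_eq_mul, Finset.card_univ, ← Nat.card_eq_fintype_card]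
  have hmain := card_le_of_embeddings (rootField N) (fun i => (⟨a 1 i, hmem i⟩ : rootField N))
    (fun i h => hne i (congrArg Subtype.val h))
    (fun i => IsIntegral.sum _ fun t _ => (isIntegral_of_pow_eq_one hN0
      (by rw [mul_pow, hζ, hη, one_mul])).pow _) _ hbound
  rw [Fintype.card_sigma, Finset.sum_const, Finset.card_univ, smul_eq_mul, hcard,
    ← Nat.card_eq_fintype_card, Cfsg.Agent.Chars.card_irr_eq_card_conjClasses, Nat.cast_mul,
    mul_comm] at hmain
  exact_mod_cast le_of_mul_le_mul_left hmain (Nat.cast_pos.mpr Nat.card_pos)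

end Cfsg.Agent.DegreeGraph
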