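import Cfsg.Agent.DegreeGraph.Principal
import Cfsg.Agent.DegreeGraph.PrincipalUnit
import Cfsg.Agent.PermGroups.PermModule

/-!
Central characters at classes not centralizing a normal `p`-subgroup lie in the local ideal.
-/

namespace Cfsg.Agent.DegreeGraph

open Cfsg Matrix

set_option linter.style.haveILetI false
set_option linter.unusedSectionVars false

universe u

variable {G : Type u} [Group G] [Fintype G] {p : ℕ} [Fact p.Prime] {M : Ideal AlgInt} [M.IsMaximal]

theorem centralChar_memI_of_not_centralize (hpM : (p : AlgInt) ∈ M) {D : Subgroup G} [D.Normal]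
    (hD : IsPGroup p D) (χ : IrrCharacter G) {g : G}
    (hg : g ∉ Subgroup.centralizer (D : Set G)) :
    MemLocalIdeal M (centralChar (χ : G → ℂ) g) := by
  classical
  have : CharP (Blocks.Res M) p :=
    (CharP.charP_iff_prime_eq_zero (Fact.out : p.Prime)).mpr (by
      rw [← map_natCast (Ideal.Quotient.mk M), Ideal.Quotient.eq_zero_iff_mem]; exact hpM)
  obtain ⟨n, ρ, hn, h1, htr, hρ, hs⟩ := Blocks.exists_locRep hpM χ.2
  let ρl : G →* Matrix (Fin n) (Fin n) (Blocks.loc M) :=
    { toFun := fun x => Matrix.of fun i j => ⟨ρ x i j, hρ x i j⟩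
      map_one' := by
        ext i j
        simp only [map_one, Matrix.of_apply, Matrix.one_apply]
        split_ifs <;> rfl
      map_mul' := fun a b => by
        ext i j
        simp [Matrix.mul_apply, AddSubmonoidClass.coe_finset_sum] }
  let σ : G →* Matrix (Fin n) (Fin n) (Blocks.Res M) :=
    ((Blocks.residue M).mapMatrix.toMonoidHom).comp ρl
  let act : MulAction D (Fin n → Blocks.Res M) :=
    { smul := fun d v => σ d *ᵥ v
      one_smul := fun v => by show σ ((1 : D) : G) *ᵥ v = v; simp
      mul_smul := fun a b v => by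
        show σ ((a * b : D) : G) *ᵥ v = σ a *ᵥ (σ b *ᵥ v)
        rw [Matrix.mulVec_mulVec, Subgroup.coe_mul, map_mul] }
  haveI : Nonempty (Fin n) := ⟨⟨0, hn⟩⟩
  obtain ⟨v, -, hv0, hvfix⟩ := PermGroups.exists_fixed_vector (K := Blocks.Res M) hD
    (fun (d : D) x y => Matrix.mulVec_add (σ (d : G)) x y) ⊤ (fun _ _ _ => Submodule.mem_top) top_ne_bot
  replace hvfix : ∀ d : D, σ d *ᵥ v = v := hvfix
  set f : G → ℂ := Blocks.clsFun g with hf
  have hfR : Blocks.RFun M f := Blocks.rFun_clsFun g
  have hfc : IsClassFunction G f := Blocks.isClassFunction_clsFun g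
  let fl : G → Blocks.loc M := fun x => ⟨f x, hfR x⟩
  let ω : Blocks.loc M := ⟨Blocks.omega (χ : G → ℂ) f, Blocks.omega_memR hpM χ.2 hfc hfR⟩
  have hact : ∑ x : G, fl x • ρl x = ω • (1 : Matrix (Fin n) (Fin n) (Blocks.loc M)) := by
    have h := Blocks.act_eq_omega ρ htr hs hn h1 hfc
    ext i j
    have h' := congrFun (congrFun h i) j
    simp only [Blocks.act, Matrix.sum_apply, Matrix.smul_apply, smul_eq_mul] at h'
    simp only [Matrix.sum_apply, Matrix.smul_apply, smul_eq_mul, AddSubmonoidClass.coe_finset_sum]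
    simp only [Matrix.one_apply] at h' ⊢
    split_ifs at h' ⊢ <;> simpa [ρl, fl, ω] using h'
  have hsum : ∀ i, Blocks.residue M ω * v i =
      ∑ x : G, Blocks.residue M (fl x) * (σ x *ᵥ v) i := by
    intro i
    have h := congrArg (fun A => ((Blocks.residue M).mapMatrix A *ᵥ v) i) hact
    simp only [map_sum, RingHom.mapMatrix_apply] at h
    rw [Matrix.sum_mulVec, Finset.sum_apply] at h
    have e : ∀ (c : Blocks.loc M) (A : Matrix (Fin n) (Fin n) (Blocks.loc M)),
        (c • A).map (Blocks.residue M) = Blocks.residue M c • A.map (Blocks.residue M) :=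
      fun c A => by ext a b; simp
    simp only [e, Matrix.smul_mulVec, Pi.smul_apply, smul_eq_mul] at h
    rw [Matrix.map_one _ (map_zero _) (map_one _), Matrix.one_mulVec] at h
    exact h.symm
  let actc : MulAction D G := MulAction.compHom G (MulAut.conj.comp D.subtype)
  have hsm : ∀ (u : D) (a : G), u • a = (u : G) * a * (u : G)⁻¹ := fun _ _ => rfl
  have hzero : ∀ i, Blocks.residue M ω * v i = 0 := by
    intro i
    rw [hsum, BlockChar.sum_eq_sum_fixed (k := Blocks.Res M) hD
      (fun x => Blocks.residue M (fl x) * (σ x *ᵥ v) i) (fun u x => ?_)]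
    · refine Finset.sum_eq_zero fun x hx => ?_
      have hfix := (Finset.mem_filter.1 hx).2
      have hx0 : fl x = 0 := Subtype.ext (by
        show f x = 0
        refine Blocks.clsFun_of_not fun hgx => hg ?_
        obtain ⟨c, hc⟩ := isConj_iff.1 hgx.symm
        rw [← hc]
        refine Subgroup.Normal.conj_mem inferInstance x ?_ c
        rw [Subgroup.mem_centralizer_iff]
        intro u hu
        exact mul_inv_eq_iff_eq_mul.1 (by rw [← hsm ⟨u, hu⟩ x]; exact hfix ⟨u, hu⟩))
      rw [hx0, map_zero, zero_mul]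
    · rw [hsm]
      have e1 : fl ((u : G) * x * (u : G)⁻¹) = fl x := Subtype.ext (hfc x u)
      have e2 : σ ((u : G) * x * (u : G)⁻¹) *ᵥ v = σ x *ᵥ v := by
        have e3 : (u : G) * x * (u : G)⁻¹ = x * ((x⁻¹ * (u : G) * x) * (u : G)⁻¹) := by group
        have hu' : x⁻¹ * (u : G) * x ∈ D := by
          simpa using Subgroup.Normal.conj_mem (inferInstance : D.Normal) u u.2 x⁻¹
        rw [e3, map_mul, ← Matrix.mulVec_mulVec]
        have h := hvfix (⟨_, hu'⟩ * u⁻¹)
        rw [Subgroup.coe_mul, Subgroup.coe_inv] at h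
        rw [h]
      rw [e1, e2]
  obtain ⟨i, hi⟩ : ∃ i, v i ≠ 0 := by
    by_contra h; push Not at h; exact hv0 (funext h)
  have := (mul_eq_zero.1 (hzero i)).resolve_right hi
  rw [Blocks.residue_eq_zero_iff] at this
  rwa [← Blocks.omega_clsFun (Chars.isClassFunction_irr χ)]

end Cfsg.Agent.DegreeGraph
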